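import Cfsg.Agent.Helper28.O73L.Data

set_option autoImplicit false

namespace Cfsg.Agent.Helper28.O73L

theorem lb2_0 : Cfsg.Agent.Helper28.ptChunk (Cfsg.Agent.Helper28.lbPt Cfsg.Agent.Helper28.F22Q1.T 3159 W2 ov2 op2 otp2 otw2) 2240 256 0 = true := by decide +kernel

theorem lb2_1 : Cfsg.Agent.Helper28.ptChunk (Cfsg.Agent.Helper28.lbPt Cfsg.Agent.Helper28.F22Q1.T 3159 W2 ov2 op2 otp2 otw2) 2240 256 1 = true := by decide +kernel

theorem lb2_2 : Cfsg.Agent.Helper28.ptChunk (Cfsg.Agent.Helper28.lbPt Cfsg.Agent.Helper28.F22Q1.T 3159 W2 ov2 op2 otp2 otw2) 2240 256 2 = true := by decide +kernel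

theorem lb2_3 : Cfsg.Agent.Helper28.ptChunk (Cfsg.Agent.Helper28.lbPt Cfsg.Agent.Helper28.F22Q1.T 3159 W2 ov2 op2 otp2 otw2) 2240 256 3 = true := by decide +kernel

theorem lb2_4 : Cfsg.Agent.Helper28.ptChunk (Cfsg.Agent.Helper28.lbPt Cfsg.Agent.Helper28.F22Q1.T 3159 W2 ov2 op2 otp2 otw2) 2240 256 4 = true := by decide +kernel

theorem lb2_5 : Cfsg.Agent.Helper28.ptChunk (Cfsg.Agent.Helper28.lbPt Cfsg.Agent.Helper28.F22Q1.T 3159 W2 ov2 op2 otp2 otw2) 2240 256 5 = true := by decide +kernel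

theorem lb2_6 : Cfsg.Agent.Helper28.ptChunk (Cfsg.Agent.Helper28.lbPt Cfsg.Agent.Helper28.F22Q1.T 3159 W2 ov2 op2 otp2 otw2) 2240 256 6 = true := by decide +kernel

theorem lb2_7 : Cfsg.Agent.Helper28.ptChunk (Cfsg.Agent.Helper28.lbPt Cfsg.Agent.Helper28.F22Q1.T 3159 W2 ov2 op2 otp2 otw2) 2240 256 7 = true := by decide +kernel

end Cfsg.Agent.Helper28.O73L
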