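import Cfsg.Agent.Helper28.O73L.Data

set_option autoImplicit false

namespace Cfsg.Agent.Helper28.O73L

theorem lb2_8 : Cfsg.Agent.Helper28.ptChunk (Cfsg.Agent.Helper28.lbPt Cfsg.Agent.Helper28.F22Q1.T 3159 W2 ov2 op2 otp2 otw2) 2240 256 8 = true := by decide +kernel

end Cfsg.Agent.Helper28.O73L
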