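import Cfsg.Agent.Helper28.O73L.Data

set_option autoImplicit false

namespace Cfsg.Agent.Helper28.O73L

theorem lb3_0 : Cfsg.Agent.Helper28.ptChunk (Cfsg.Agent.Helper28.lbPt Cfsg.Agent.Helper28.F22Q1.T 3159 W3 ov3 op3 otp3 otw3) 648 256 0 = true := by decide +kernel

theorem lb3_1 : Cfsg.Agent.Helper28.ptChunk (Cfsg.Agent.Helper28.lbPt Cfsg.Agent.Helper28.F22Q1.T 3159 W3 ov3 op3 otp3 otw3) 648 256 1 = true := by decide +kernel

theorem lb3_2 : Cfsg.Agent.Helper28.ptChunk (Cfsg.Agent.Helper28.lbPt Cfsg.Agent.Helper28.F22Q1.T 3159 W3 ov3 op3 otp3 otw3) 648 256 2 = true := by decide +kernel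

end Cfsg.Agent.Helper28.O73L
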