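import Cfsg.Agent.Helper28.O73.Pres
import Cfsg.Agent.Helper28.F22Q1.Cert
import Cfsg.Agent.Helper28.O73L.Lb2_0
import Cfsg.Agent.Helper28.O73L.Lb2_1
import Cfsg.Agent.Helper28.O73L.Lb3_0

set_option autoImplicit false

namespace Cfsg.Agent.Helper28.O73L

theorem lb2_all : ∀ t, t < 2240 → Cfsg.Agent.Helper28.lbPt Cfsg.Agent.Helper28.F22Q1.T 3159 W2 ov2 op2 otp2 otw2 t = true :=
  Cfsg.Agent.Helper28.pts_of_chunks _ 2240 256 9 (by decide) (by decide)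
    (Cfsg.Agent.Helper28.allLt_succ _ 8 (Cfsg.Agent.Helper28.allLt_succ _ 7 (Cfsg.Agent.Helper28.allLt_succ _ 6 (Cfsg.Agent.Helper28.allLt_succ _ 5 (Cfsg.Agent.Helper28.allLt_succ _ 4 (Cfsg.Agent.Helper28.allLt_succ _ 3 (Cfsg.Agent.Helper28.allLt_succ _ 2 (Cfsg.Agent.Helper28.allLt_succ _ 1 (Cfsg.Agent.Helper28.allLt_succ _ 0 (Cfsg.Agent.Helper28.allLt_zero _) lb2_0) lb2_1) lb2_2) lb2_3) lb2_4) lb2_5) lb2_6) lb2_7) lb2_8)

theorem fix2 : Cfsg.Agent.Helper28.fixChk Cfsg.Agent.Helper28.F22Q1.T 8 W2 [0] = true := by decide +kernel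

theorem lb3_all : ∀ t, t < 648 → Cfsg.Agent.Helper28.lbPt Cfsg.Agent.Helper28.F22Q1.T 3159 W3 ov3 op3 otp3 otw3 t = true :=
  Cfsg.Agent.Helper28.pts_of_chunks _ 648 256 3 (by decide) (by decide)
    (Cfsg.Agent.Helper28.allLt_succ _ 2 (Cfsg.Agent.Helper28.allLt_succ _ 1 (Cfsg.Agent.Helper28.allLt_succ _ 0 (Cfsg.Agent.Helper28.allLt_zero _) lb3_0) lb3_1) lb3_2)

theorem fix3 : Cfsg.Agent.Helper28.fixChk Cfsg.Agent.Helper28.F22Q1.T 8 W3 [ov2 0, 0] = true := by decide +kernel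

/-- the stabiliser chain bounds the order from below -/
theorem lb_chain [Finite Cfsg.Agent.Helper28.O73.Q] :
    3159 * 2240 * 648 * Nat.card (Cfsg.Agent.Helper28.fixSub Cfsg.Agent.Helper28.F22Q1.cert.perm [ov3 0, ov2 0, 0]) ≤ Nat.card Cfsg.Agent.Helper28.O73.Q :=
  Cfsg.Agent.Helper28.chain_mul (Cfsg.Agent.Helper28.chain_mul (Cfsg.Agent.Helper28.F22Q1.cert.lb_top) (Cfsg.Agent.Helper28.F22Q1.cert.lb_level [0] W2 2240 ov2 op2 otp2 otw2 fix2 lb2_all)) (Cfsg.Agent.Helper28.F22Q1.cert.lb_level [ov2 0, 0] W3 648 ov3 op3 otp3 otw3 fix3 lb3_all)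

end Cfsg.Agent.Helper28.O73L
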